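import Cfsg.Agent.Lib.Helper58.UPair.Defs

/-!
# Project UPair (S5984): diagonal unitary matrices
-/

set_option autoImplicit false
open scoped MatrixGroups Matrix

namespace Cfsg.Agent.Lib.Helper92.UPair

open Cfsg.Agent.Lib.Helper58.UPair

universe u

variable {F : Type u} [Field F]

/-- The invertible diagonal matrix with the given non-zero entries. -/
noncomputable def dg {n : ℕ} (d : Fin n → F) (hd : ∀ i, d i ≠ 0) : GL (Fin n) F :=
  Matrix.GeneralLinearGroup.mkOfDetNeZero (Matrix.diagonal d) (by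
    rw [Matrix.det_diagonal]
    exact Finset.prod_ne_zero_iff.mpr (fun i _ => hd i))

theorem dg_val {n : ℕ} (d : Fin n → F) (hd : ∀ i, d i ≠ 0) :
    ((dg d hd : GL (Fin n) F) : Matrix (Fin n) (Fin n) F) = Matrix.diagonal d := rfl

theorem dg_mem_GU {n : ℕ} (q : ℕ) (d : Fin n → F) (hd : ∀ i, d i ≠ 0)
    (h : ∀ i, d i ^ (q + 1) = 1) : dg d hd ∈ Cfsg.GU n F q := by
  intro u v
  show Cfsg.hermForm n F q (Matrix.diagonal d *ᵥ u) (Matrix.diagonal d *ᵥ v) =
    Cfsg.hermForm n F q u v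
  unfold Cfsg.hermForm
  apply Finset.sum_congr rfl
  intro i _
  rw [Matrix.mulVec_diagonal, Matrix.mulVec_diagonal, mul_pow]
  have e : d i * u i * (d i ^ q * v i ^ q) = d i ^ (q + 1) * (u i * v i ^ q) := by ring
  rw [e, h i, one_mul]

theorem dg_mem_SL {n : ℕ} (d : Fin n → F) (hd : ∀ i, d i ≠ 0) (h : ∏ i, d i = 1) :
    dg d hd ∈ Cfsg.Geo.specialLinear (Fin n) F := by
  show Matrix.GeneralLinearGroup.det (dg d hd) = 1
  apply Units.ext
  rw [Matrix.GeneralLinearGroup.val_det_apply, dg_val, Matrix.det_diagonal, h]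
  rfl

theorem dg_mem_Gp {n : ℕ} (q : ℕ) (d : Fin n → F) (hd : ∀ i, d i ≠ 0)
    (h : ∀ i, d i ^ (q + 1) = 1) (h1 : ∏ i, d i = 1) : dg d hd ∈ Gp n F q :=
  Subgroup.mem_inf.mpr ⟨dg_mem_GU q d hd h, dg_mem_SL d hd h1⟩

theorem dg_pow_val {n : ℕ} (d : Fin n → F) (hd : ∀ i, d i ≠ 0) (r : ℕ) :
    ((dg d hd ^ r : GL (Fin n) F) : Matrix (Fin n) (Fin n) F) =
      Matrix.diagonal (fun i => d i ^ r) := by
  rw [Units.val_pow_eq_pow_val, dg_val, Matrix.diagonal_pow]
  rfl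

theorem dg_pow_eq_one {n : ℕ} (d : Fin n → F) (hd : ∀ i, d i ≠ 0) (r : ℕ)
    (h : ∀ i, d i ^ r = 1) : dg d hd ^ r = 1 := by
  apply Units.ext
  rw [dg_pow_val]
  have e : (fun i => d i ^ r) = fun _ => (1 : F) := funext h
  rw [e, Matrix.diagonal_one]
  rfl

theorem sh_dg {n : ℕ} (d : Fin n → F) (hd : ∀ i, d i ≠ 0) (c : F) :
    sh (dg d hd) c = Matrix.diagonal (fun i => d i - c) := by
  show Matrix.diagonal d - c • (1 : Matrix (Fin n) (Fin n) F) = _
  ext i j
  by_cases hij : i = j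
  · subst hij
    simp
  · simp [Matrix.diagonal_apply_ne _ hij, Matrix.one_apply_ne hij]

theorem rank_sh_dg {n : ℕ} (d : Fin n → F) (hd : ∀ i, d i ≠ 0) (c : F) :
    (sh (dg d hd) c).rank = Nat.card {i // d i - c ≠ 0} := by
  classical
  rw [sh_dg, Matrix.rank_diagonal, Nat.card_eq_fintype_card]

theorem card_val_lt {n k : ℕ} (hk : k ≤ n) : Nat.card {i : Fin n // i.val < k} = k := by
  have e : {i : Fin n // i.val < k} ≃ Fin k :=
    { toFun := fun i => ⟨i.1.val, i.2⟩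
      invFun := fun j => ⟨⟨j.val, lt_of_lt_of_le j.2 hk⟩, j.2⟩
      left_inv := fun _ => rfl
      right_inv := fun _ => rfl }
  rw [Nat.card_congr e, Nat.card_eq_fintype_card, Fintype.card_fin]

/-- The rank of `x - c` for a diagonal `x` whose entries differ from `c` exactly at the first
`k` places. -/
theorem rank_sh_dg_of {n k : ℕ} (hk : k ≤ n) (d : Fin n → F) (hd : ∀ i, d i ≠ 0) (c : F)
    (h : ∀ i : Fin n, d i - c ≠ 0 ↔ i.val < k) : (sh (dg d hd) c).rank = k := by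
  rw [rank_sh_dg, Nat.card_congr (Equiv.subtypeEquivRight h), card_val_lt hk]

end Cfsg.Agent.Lib.Helper92.UPair
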