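import Cfsg.Agent.Lib.Helper92.UPair.Diag

/-!
# Project UPair (S5984): package [INVEX]
-/

set_option autoImplicit false
open scoped MatrixGroups Matrix

namespace Cfsg.Agent.Lib.Helper92.UPair

open Cfsg.Agent.Lib.Helper58.UPair

universe u

/-- A field of odd cardinality has `2 ≠ 0`. -/
theorem two_ne_zero_of_card {F : Type u} [Field F] [Fintype F] (q : ℕ)
    (hF : Fintype.card F = q ^ 2) (hq : Odd q) : (2 : F) ≠ 0 := by
  intro h2
  have h0 : ((Fintype.card F : ℕ) : F) = 0 := Nat.cast_card_eq_zero F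
  have hodd : Odd (q ^ 2) := hq.pow
  obtain ⟨m, hm⟩ := hodd
  rw [hF, hm] at h0
  push_cast at h0
  rw [h2, zero_mul, zero_add] at h0
  exact one_ne_zero h0

/-- A norm-one element `l` of `F` with `l ^ n = -1`, when `v₂(n) < v₂(q + 1)`. -/
theorem exists_norm_one_pow_eq_neg_one {F : Type u} [Field F] [Fintype F] (q n : ℕ)
    (hF : Fintype.card F = q ^ 2) (hq : Odd q) (hn : 2 ≤ n)
    (hval : padicValNat 2 n < padicValNat 2 (q + 1)) :
    ∃ l : F, l ≠ 0 ∧ l ^ (q + 1) = 1 ∧ l ^ n = -1 := by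
  classical
  have hq2 : 2 ≤ q := by
    have h1 : 1 < Fintype.card F := Fintype.one_lt_card
    rw [hF] at h1
    by_contra hlt
    have : q ≤ 1 := by omega
    have : q ^ 2 ≤ 1 := by nlinarith
    omega
  have hcard : Fintype.card Fˣ = (q - 1) * (q + 1) := by
    rw [Fintype.card_units, hF]
    obtain ⟨j, rfl⟩ : ∃ j, q = j + 1 := ⟨q - 1, by omega⟩
    have e : (j + 1) ^ 2 = j * (j + 1 + 1) + 1 := by ring
    rw [e]
    simp
  obtain ⟨ω, hω⟩ := IsCyclic.exists_generator (α := Fˣ)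
  have hord : orderOf ω = (q - 1) * (q + 1) := by
    rw [orderOf_eq_card_of_forall_mem_zpowers hω, Nat.card_eq_fintype_card, hcard]
  have hn0 : n ≠ 0 := by omega
  obtain ⟨s, hs⟩ : ∃ s, s = padicValNat 2 n := ⟨_, rfl⟩
  have h2s : 2 ^ (s + 1) ∣ q + 1 := by
    have h1 : 2 ^ padicValNat 2 (q + 1) ∣ q + 1 := pow_padicValNat_dvd
    exact (pow_dvd_pow 2 (by omega)).trans h1
  obtain ⟨t, ht⟩ := h2s
  have ht0 : 0 < t := by
    rcases Nat.eq_zero_or_pos t with h | h
    · rw [h, mul_zero] at ht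
      omega
    · exact h
  have hωpow : ω ^ ((q - 1) * (q + 1)) = 1 := by
    rw [← hord]
    exact pow_orderOf_eq_one ω
  obtain ⟨l, hl⟩ : ∃ l : Fˣ, l = ω ^ ((q - 1) * t) := ⟨_, rfl⟩
  have hl_norm : l ^ (q + 1) = 1 := by
    rw [hl, ← pow_mul]
    have e : (q - 1) * t * (q + 1) = (q - 1) * (q + 1) * t := by ring
    rw [e, pow_mul, hωpow, one_pow]
  have hl_sq : (l ^ 2 ^ s) ^ 2 = 1 := by
    rw [hl, ← pow_mul, ← pow_mul]
    have e : (q - 1) * t * (2 ^ s * 2) = (q - 1) * (q + 1) := by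
      rw [ht, pow_succ]
      ring
    rw [e, hωpow]
  have hl_ne : l ^ 2 ^ s ≠ 1 := by
    intro h
    rw [hl, ← pow_mul] at h
    have hdvd : orderOf ω ∣ (q - 1) * t * 2 ^ s := orderOf_dvd_of_pow_eq_one h
    rw [hord] at hdvd
    have hpos : 0 < (q - 1) * t * 2 ^ s := by
      have h1 : 0 < q - 1 := by omega
      positivity
    have hle := Nat.le_of_dvd hpos hdvd
    have e : (q - 1) * (q + 1) = (q - 1) * t * 2 ^ s * 2 := by
      rw [ht, pow_succ]
      ring
    omega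
  have hlF : ((l : F)) ^ 2 ^ s = -1 := by
    have h1 : ((l : F) ^ 2 ^ s) * ((l : F) ^ 2 ^ s) = 1 := by
      rw [← pow_two, ← Units.val_pow_eq_pow_val, ← Units.val_pow_eq_pow_val, hl_sq, Units.val_one]
    rcases mul_self_eq_one_iff.mp h1 with h | h
    · exfalso
      apply hl_ne
      apply Units.ext
      rw [Units.val_pow_eq_pow_val, h, Units.val_one]
    · exact h
  have hdvdn : 2 ^ s ∣ n := by
    rw [hs]
    exact pow_padicValNat_dvd
  obtain ⟨n', hn'⟩ := hdvdn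
  have hodd' : Odd n' := by
    by_contra h
    rw [Nat.not_odd_iff_even] at h
    obtain ⟨m, hm⟩ := h
    have hnd : ¬ 2 ^ (padicValNat 2 n + 1) ∣ n := pow_succ_padicValNat_not_dvd hn0
    apply hnd
    rw [← hs]
    refine ⟨m, ?_⟩
    rw [hn', hm, pow_succ]
    ring
  refine ⟨(l : F), l.ne_zero, ?_, ?_⟩
  · rw [← Units.val_pow_eq_pow_val, hl_norm, Units.val_one]
  · rw [hn', pow_mul, hlF]
    exact hodd'.neg_one_pow

/-- [INVEX] `λ · diag(-1, 1, …, 1)` with `λ` of norm one and `λ ^ n = -1`. -/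
theorem pkgInvEx : PkgInvEx.{u} := by
  intro F _ _ q n hF hq hn hval
  classical
  obtain ⟨l, hl0, hlq, hln⟩ := exists_norm_one_pow_eq_neg_one q n hF hq hn hval
  have h2 : (2 : F) ≠ 0 := two_ne_zero_of_card q hF hq
  obtain ⟨k, rfl⟩ : ∃ k, n = k + 1 := ⟨n - 1, by omega⟩
  obtain ⟨d, hdef⟩ : ∃ d : Fin (k + 1) → F, d = fun i : Fin (k + 1) =>
      if i.val = 0 then -l else l := ⟨fun i : Fin (k + 1) => if i.val = 0 then -l else l, rfl⟩
  have hcase : ∀ i : Fin (k + 1), (i.val = 0 ∧ d i = -l) ∨ (1 ≤ i.val ∧ d i = l) := by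
    intro i
    rw [hdef]
    by_cases h0 : i.val = 0
    · left
      exact ⟨h0, if_pos h0⟩
    · right
      exact ⟨by omega, if_neg h0⟩
  have hd : ∀ i, d i ≠ 0 := by
    intro i
    rcases hcase i with ⟨-, h⟩ | ⟨-, h⟩ <;> rw [h]
    · exact neg_ne_zero.mpr hl0
    · exact hl0
  have hq1 : Even (q + 1) := hq.add_one
  have hpw : ∀ i, d i ^ (q + 1) = 1 := by
    intro i
    rcases hcase i with ⟨-, h⟩ | ⟨-, h⟩ <;> rw [h]
    · rw [hq1.neg_pow, hlq]
    · exact hlq
  have hprod : ∏ i, d i = 1 := by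
    rw [Fin.prod_univ_succ]
    have e0 : d 0 = -l := by
      have hv : ((0 : Fin (k + 1))).val = 0 := rfl
      rcases hcase 0 with ⟨-, h⟩ | ⟨h', -⟩
      · exact h
      · omega
    have e1 : ∀ i : Fin k, d (Fin.succ i) = l := by
      intro i
      have hv : (Fin.succ i).val = i.val + 1 := rfl
      rcases hcase (Fin.succ i) with ⟨h', -⟩ | ⟨-, h⟩
      · omega
      · exact h
    rw [e0, Finset.prod_congr rfl (fun i _ => e1 i), Finset.prod_const, Finset.card_univ,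
      Fintype.card_fin, neg_mul, ← pow_succ', hln, neg_neg]
  have hsq : ∀ i, d i ^ 2 = l ^ 2 := by
    intro i
    rcases hcase i with ⟨-, h⟩ | ⟨-, h⟩ <;> rw [h]
    exact neg_pow_two l
  refine ⟨dg d hd, dg_mem_Gp q d hd hpw hprod, l, hlq, ?_, ?_⟩
  · rw [dg_pow_val, Matrix.smul_one_eq_diagonal]
    congr 1
    funext i
    exact hsq i
  · apply rank_sh_dg_of (k := 1) (by omega)
    intro i
    rcases hcase i with ⟨hv, h⟩ | ⟨hv, h⟩ <;> rw [h]
    · refine ⟨fun _ => by omega, fun _ => ?_⟩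
      have e : -l - l = -(2 * l) := by ring
      rw [e]
      exact neg_ne_zero.mpr (mul_ne_zero h2 hl0)
    · rw [sub_self]
      exact ⟨fun h' => absurd rfl h', fun h' => by omega⟩

end Cfsg.Agent.Lib.Helper92.UPair
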