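import Cfsg.Agent.Lib.Helper92.UPair.Diag

/-!
# Project UPair (S5984): package [SEMIA]
-/

set_option autoImplicit false
open scoped MatrixGroups Matrix

namespace Cfsg.Agent.Lib.Helper92.UPair

open Cfsg.Agent.Lib.Helper58.UPair

universe u

/-- [SEMIA] for an odd prime `r ∣ q + 1` the matrix `diag(λ, λ, λ⁻², 1, …, 1)` with `λ` of order
`r` lies in `SU_n(q)`, has order dividing `r` and `x - 1` has rank `3`. -/
theorem pkgSemiA : PkgSemiA.{u} := by
  intro F _ _ q n r hF hn hr hr2 hdvd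
  classical
  have : Fact r.Prime := ⟨hr⟩
  obtain ⟨k, rfl⟩ : ∃ k, n = k + 3 := ⟨n - 3, by omega⟩
  have hq2 : 2 ≤ q := by
    have h1 : 1 < Fintype.card F := Fintype.one_lt_card
    rw [hF] at h1
    by_contra hlt
    have : q ≤ 1 := by omega
    have : q ^ 2 ≤ 1 := by nlinarith
    omega
  have hcard : Fintype.card Fˣ = (q - 1) * (q + 1) := by
    rw [Fintype.card_units, hF]
    obtain ⟨j, rfl⟩ : ∃ j, q = j + 1 := ⟨q - 1, by omega⟩
    have e : (j + 1) ^ 2 = j * (j + 1 + 1) + 1 := by ring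
    rw [e]
    simp
  have hr_dvd : r ∣ Fintype.card Fˣ := by
    rw [hcard]
    exact Dvd.dvd.mul_left hdvd _
  obtain ⟨w, hw⟩ := exists_prime_orderOf_dvd_card r hr_dvd
  obtain ⟨lam, hlam⟩ : ∃ lam : F, lam = (w : F) := ⟨_, rfl⟩
  have hl0 : lam ≠ 0 := by
    rw [hlam]
    exact w.ne_zero
  have hlr : lam ^ r = 1 := by
    have h := pow_orderOf_eq_one w
    rw [hw] at h
    rw [hlam, ← Units.val_pow_eq_pow_val, h, Units.val_one]
  have hlq : lam ^ (q + 1) = 1 := by
    have h : w ^ (q + 1) = 1 := orderOf_dvd_iff_pow_eq_one.mp (hw ▸ hdvd)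
    rw [hlam, ← Units.val_pow_eq_pow_val, h, Units.val_one]
  have hl1 : lam ≠ 1 := by
    intro h
    have h1 : w = 1 := Units.ext (by rw [← hlam, h, Units.val_one])
    rw [h1, orderOf_one] at hw
    exact hr.one_lt.ne hw
  have hl2 : lam ^ 2 ≠ 1 := by
    intro h
    have h1 : w ^ 2 = 1 := Units.ext (by rw [Units.val_pow_eq_pow_val, ← hlam, h, Units.val_one])
    have h2 : r ∣ 2 := hw ▸ orderOf_dvd_of_pow_eq_one h1
    have h3 : r ≤ 2 := Nat.le_of_dvd (by norm_num) h2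
    have h4 := hr.two_le
    omega
  have hi1 : (lam ^ 2)⁻¹ ≠ 1 := by
    intro h
    exact hl2 (inv_eq_one.mp h)
  obtain ⟨d, hdef⟩ : ∃ d : Fin (k + 3) → F, d = fun i : Fin (k + 3) =>
      if i.val = 0 then lam else if i.val = 1 then lam else if i.val = 2 then (lam ^ 2)⁻¹
      else (1 : F) := ⟨fun i : Fin (k + 3) =>
      if i.val = 0 then lam else if i.val = 1 then lam else if i.val = 2 then (lam ^ 2)⁻¹
      else (1 : F), rfl⟩
  have hcase : ∀ i : Fin (k + 3), (i.val = 0 ∧ d i = lam) ∨ (i.val = 1 ∧ d i = lam) ∨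
      (i.val = 2 ∧ d i = (lam ^ 2)⁻¹) ∨ (3 ≤ i.val ∧ d i = 1) := by
    intro i
    rw [hdef]
    by_cases h0 : i.val = 0
    · left
      exact ⟨h0, if_pos h0⟩
    · by_cases h1 : i.val = 1
      · right; left
        refine ⟨h1, ?_⟩
        show (if i.val = 0 then lam else _) = lam
        rw [if_neg h0, if_pos h1]
      · by_cases h2 : i.val = 2
        · right; right; left
          refine ⟨h2, ?_⟩
          show (if i.val = 0 then lam else _) = (lam ^ 2)⁻¹
          rw [if_neg h0, if_neg h1, if_pos h2]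
        · right; right; right
          refine ⟨by omega, ?_⟩
          show (if i.val = 0 then lam else _) = 1
          rw [if_neg h0, if_neg h1, if_neg h2]
  have hd : ∀ i, d i ≠ 0 := by
    intro i
    rcases hcase i with ⟨-, h⟩ | ⟨-, h⟩ | ⟨-, h⟩ | ⟨-, h⟩ <;> rw [h]
    · exact hl0
    · exact hl0
    · exact inv_ne_zero (pow_ne_zero 2 hl0)
    · exact one_ne_zero
  have hpw : ∀ e : ℕ, lam ^ e = 1 → ∀ i, d i ^ e = 1 := by
    intro e he i
    rcases hcase i with ⟨-, h⟩ | ⟨-, h⟩ | ⟨-, h⟩ | ⟨-, h⟩ <;> rw [h]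
    · exact he
    · exact he
    · rw [inv_pow, ← pow_mul, mul_comm, pow_mul, he, one_pow, inv_one]
    · exact one_pow e
  have hprod : ∏ i, d i = 1 := by
    rw [Fin.prod_univ_succ, Fin.prod_univ_succ, Fin.prod_univ_succ]
    have e0 : d 0 = lam := by
      have hv : ((0 : Fin (k + 3))).val = 0 := rfl
      rcases hcase 0 with ⟨-, h⟩ | ⟨h', -⟩ | ⟨h', -⟩ | ⟨h', -⟩
      · exact h
      · omega
      · omega
      · omega
    have e1 : d (Fin.succ 0) = lam := by
      have hv : (Fin.succ (0 : Fin (k + 2))).val = 1 := rfl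
      rcases hcase (Fin.succ 0) with ⟨h', -⟩ | ⟨-, h⟩ | ⟨h', -⟩ | ⟨h', -⟩
      · omega
      · exact h
      · omega
      · omega
    have e2 : d (Fin.succ (Fin.succ 0)) = (lam ^ 2)⁻¹ := by
      have hv : (Fin.succ (Fin.succ (0 : Fin (k + 1)))).val = 2 := rfl
      rcases hcase (Fin.succ (Fin.succ 0)) with ⟨h', -⟩ | ⟨h', -⟩ | ⟨-, h⟩ | ⟨h', -⟩
      · omega
      · omega
      · exact h
      · omega
    have e3 : ∀ i : Fin k, d (Fin.succ (Fin.succ (Fin.succ i))) = 1 := by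
      intro i
      have hv : (Fin.succ (Fin.succ (Fin.succ i))).val = i.val + 3 := by simp
      rcases hcase (Fin.succ (Fin.succ (Fin.succ i))) with ⟨h', -⟩ | ⟨h', -⟩ | ⟨h', -⟩ | ⟨-, h⟩
      · omega
      · omega
      · omega
      · exact h
    rw [e0, e1, e2, Finset.prod_congr rfl (fun i _ => e3 i), Finset.prod_const_one, mul_one]
    field_simp
  refine ⟨dg d hd, dg_mem_Gp q d hd (hpw _ hlq) hprod, dg_pow_eq_one d hd r (hpw _ hlr), ?_⟩
  apply rank_sh_dg_of (k := 3) (by omega)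
  intro i
  rcases hcase i with ⟨hv, h⟩ | ⟨hv, h⟩ | ⟨hv, h⟩ | ⟨hv, h⟩ <;> rw [h]
  · exact ⟨fun _ => by omega, fun _ => sub_ne_zero.mpr hl1⟩
  · exact ⟨fun _ => by omega, fun _ => sub_ne_zero.mpr hl1⟩
  · exact ⟨fun _ => by omega, fun _ => sub_ne_zero.mpr hi1⟩
  · rw [sub_self]
    exact ⟨fun h' => absurd rfl h', fun h' => by omega⟩

end Cfsg.Agent.Lib.Helper92.UPair
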